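import Cfsg.Agent.Lib.ChevBN.Pair
import Cfsg.Prelude.Def_ChevAutomorphisms
import Cfsg.Prelude.Def_LieTypes
import Cfsg.Prelude.Def_ChevB2

/-!
The Chevalley group is generated by its monomial subgroup and a few root subgroups.
-/

set_option autoImplicit false
set_option linter.unusedSectionVars false

namespace Cfsg.Agent.Lib.ChevBN.MonoGen

open Cfsg.Lie Cfsg.Agent.Lib.ChevBN.Elem Cfsg.Agent.Lib.ChevBN.Entries Cfsg.Agent.Lib.ChevBN.Table
open Cfsg.Agent.Lib.ChevBN.Collect Cfsg.Agent.Lib.ChevBN.Rel Cfsg.Agent.Lib.ChevBN.Pair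

variable {D : ChevalleyDatum} {F : Type*} [Field F] {η : ℕ → ℕ → ℤ}

/-- All the root elements of `r` lie in `M`. -/
def Has (hR : Sys D F η) (M : Subgroup (GL D.Idx F)) (r : ℕ) : Prop :=
  ∀ t : F, X hR.toAddRel r t ∈ M

variable (hR : Sys D F η) (hT : Tbl D) {M : Subgroup (GL D.Idx F)}

/-- The adjacency closure of a list of nodes. -/
def grow (D : ChevalleyDatum) (L : List ℕ) : List ℕ :=
  (L ++ L.flatMap fun j => (List.range D.rank).filter fun k => D.bonds j k == 1).dedup

/-- Iterated adjacency closure. -/
def growN (D : ChevalleyDatum) : ℕ → List ℕ → List ℕ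
  | 0, L => L
  | n + 1, L => growN D n (grow D L)

theorem growN_induction {P : ℕ → Prop}
    (hstep : ∀ j, P j → ∀ k < D.rank, D.bonds j k = 1 → P k) :
    ∀ (n : ℕ) (L : List ℕ), (∀ j ∈ L, P j) → ∀ k ∈ growN D n L, P k := by
  intro n
  induction n with
  | zero => intro L hL k hk; exact hL k hk
  | succ n ih =>
    intro L hL k hk
    refine ih (grow D L) ?_ k hk
    intro j hj
    simp only [grow, List.mem_dedup, List.mem_append, List.mem_flatMap, List.mem_filter,
      List.mem_range, beq_iff_eq] at hj
    rcases hj with hj | ⟨a, ha, hj, hb⟩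
    · exact hL j hj
    · exact hstep a (hL a ha) j hj hb

include hR hT in
theorem A_mem_N' {i : ℕ} (hi : i < D.rank) : A hR i ∈ D.monomialSubgroup F := by
  refine Subgroup.mem_sup_right (Subgroup.subset_closure ?_)
  exact ⟨D.simple i, hT.simple_lt hi, coe_A hR i⟩

include hR hT in
theorem has_reflect (hN : D.monomialSubgroup F ≤ M) {q r : ℕ} (hq : q < D.rank) (hr : r < D.nroots)
    (h : Has hR M r) : Has hR M (D.reflectRoot q r) := by
  intro t
  have h1 := A_conj_X hR hq hr ((η q r : F) * t)
  rw [← mul_assoc, eta_sq hR hq hr, one_mul] at h1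
  rw [← h1]
  have hA := hN (A_mem_N' hR hT hq)
  exact M.mul_mem (M.mul_mem hA (h _)) (M.inv_mem hA)

include hR hT in
theorem has_foldr (hN : D.monomialSubgroup F ≤ M) (l : List ℕ) (hl : ∀ q ∈ l, q < D.rank) {r : ℕ}
    (hr : r < D.nroots) (h : Has hR M r) :
    l.foldr D.reflectRoot r < D.nroots ∧ Has hR M (l.foldr D.reflectRoot r) := by
  induction l with
  | nil => exact ⟨hr, h⟩
  | cons a l ih =>
    have h2 := ih fun q hq => hl q (by simp [hq])
    have ha : a < D.rank := hl a (by simp)
    exact ⟨hT.w_lt a ha _ h2.1, has_reflect hR hT hN ha h2.1 h2.2⟩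

include hR hT in
theorem group_le (hN : D.monomialSubgroup F ≤ M) (h : ∀ j < D.rank, Has hR M (D.simple j)) :
    D.group F ≤ M := by
  rw [group_eq hR.toAddRel]
  refine gen_le hR.toAddRel ?_
  intro r hr t
  have h1 := reach_univ hT hr
  have key : ∀ r, Reach D Set.univ r → Has hR M r := by
    intro r hr
    induction hr with
    | base _ hl => exact h _ hl
    | step _ hl hr' ih => exact has_reflect hR hT hN hl (hr'.lt hT) ih
  exact key r h1 t

include hR hT in
theorem has_bond (hN : D.monomialSubgroup F ≤ M)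
    (hsl : ∀ j < D.rank, ∀ k < D.rank, D.bonds j k = 1 →
      D.reflectRoot j (D.reflectRoot k (D.simple j)) = D.simple k)
    {j k : ℕ} (hj : j < D.rank) (hk : k < D.rank) (hb : D.bonds j k = 1)
    (h : Has hR M (D.simple j)) : Has hR M (D.simple k) := by
  rw [← hsl j hj k hk hb]
  have h1 := has_reflect hR hT hN hk (hT.simple_lt hj) h
  exact has_reflect hR hT hN hj (hT.w_lt k hk _ (hT.simple_lt hj)) h1

include hR hT in
/-- The closure under bonds of simple roots. -/
theorem group_le_of_list (hN : D.monomialSubgroup F ≤ M)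
    (hsl : ∀ j < D.rank, ∀ k < D.rank, D.bonds j k = 1 →
      D.reflectRoot j (D.reflectRoot k (D.simple j)) = D.simple k)
    (L : List ℕ) (hL : ∀ j ∈ L, j < D.rank ∧ Has hR M (D.simple j))
    (hc : ∀ k < D.rank, k ∈ growN D D.rank L) : D.group F ≤ M := by
  refine group_le hR hT hN ?_
  intro k hk
  have := growN_induction (D := D) (P := fun j => j < D.rank ∧ Has hR M (D.simple j))
    (fun j hj k hk hb => ⟨hk, has_bond hR hT hN hsl hj.1 hk hb hj.2⟩) D.rank L hL k (hc k hk)
  exact this.2

include hR hT in
/-- A commutator with a single term. -/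
theorem has_comm {a b l : ℕ} {c : ℤ} (ha : D.IsPosRoot a) (hb : D.IsPosRoot b) (hab : b ≠ a)
    (hc : D.commTerms a b = [(l, c, 1, 1)]) (hcF : (c : F) ≠ 0)
    (hXa : Has hR M a) (hXb : Has hR M b) : Has hR M l := by
  intro τ
  have h1 := commPos hR a b ha hb hab (1 : F) (-τ / (c : F))
  have h2 : D.commWord F a b (1 : F) (-τ / (c : F)) = [(l, τ)] := by
    rw [Cfsg.Lie.ChevalleyDatum.commWord, hc]
    simp only [List.map_cons, List.map_nil, pow_one]
    congr 2
    field_simp
  rw [h2] at h1
  have h3 : W hR.toAddRel [(l, τ)] = X hR.toAddRel l τ := by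
    simp [W]
  rw [h3] at h1
  have h4 : X hR.toAddRel l τ = (X hR.toAddRel a 1 * X hR.toAddRel b (-τ / (c : F)))⁻¹ *
      (X hR.toAddRel b (-τ / (c : F)) * X hR.toAddRel a 1) := by
    rw [h1]
    group
  rw [h4]
  exact M.mul_mem (M.inv_mem (M.mul_mem (hXa _) (hXb _))) (M.mul_mem (hXb _) (hXa _))

include hR hT in
theorem has_of_le {M' : Subgroup (GL D.Idx F)} {r : ℕ} (h : D.rootSubgroup F r ≤ M') : Has hR M' r := by
  intro t
  apply h
  rw [rootSubgroup_eq hR.toAddRel]
  exact X_mem_gen hR.toAddRel (Set.mem_singleton r) t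

section Final

theorem bond_lemma (D : ChevalleyDatum) (h : D ∈ [chevD4, chevE6, chevE7, chevE8, chevF4]) :
    (∀ j < D.rank, ∀ k < D.rank, D.bonds j k = 1 →
      D.reflectRoot j (D.reflectRoot k (D.simple j)) = D.simple k) := by
  simp only [List.mem_cons, List.not_mem_nil, or_false] at h
  rcases h with rfl | rfl | rfl | rfl | rfl <;> decide +kernel

theorem conn_lemma (D : ChevalleyDatum) (h : D ∈ [chevD4, chevE6, chevE7, chevE8]) :
    ∀ i < D.rank, ∀ k < D.rank, k ∈ growN D D.rank [i] := by
  simp only [List.mem_cons, List.not_mem_nil, or_false] at h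
  rcases h with rfl | rfl | rfl | rfl <;> decide +kernel

/-- The short root case. -/
theorem main_short {K : Type*} [Field K] {η : ℕ → ℕ → ℤ} {D : ChevalleyDatum} (hR : Sys D K η)
    (hT : Tbl D)
    (hD : D ∈ [chevG2, chevB2, chevD4, chevF4, chevE6, chevE7, chevE8])
    (h2 : D ∈ [chevB2, chevF4] → ((2 : ℤ) : K) ≠ 0) (h3 : D = chevG2 → ((3 : ℤ) : K) ≠ 0)
    (i : ℕ) (hi : i < D.rank) (hshort : D.isLong (D.simple i) = false) :
    D.group K ≤ D.monomialSubgroup K ⊔ D.rootSubgroup K (D.simple i) := by
  have hN : D.monomialSubgroup K ≤ D.monomialSubgroup K ⊔ D.rootSubgroup K (D.simple i) := le_sup_left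
  have hX : Has hR (D.monomialSubgroup K ⊔ D.rootSubgroup K (D.simple i)) (D.simple i) :=
    has_of_le hR hT le_sup_right
  simp only [List.mem_cons, List.not_mem_nil, or_false] at hD
  rcases hD with rfl | rfl | rfl | rfl | rfl | rfl | rfl
  · -- G₂
    have hi0 : i = 0 := by
      by_contra h0
      have hi1 : i = 1 := by
        have : i < 2 := hi
        omega
      subst hi1
      revert hshort
      decide +kernel
    subst hi0
    refine group_le hR hT hN ?_
    intro j hj
    have hj' : j < 2 := hj
    have hj2 : j = 0 ∨ j = 1 := by omega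
    rcases hj2 with rfl | rfl
    · exact hX
    · have hb := (has_foldr hR hT hN [0, 1] (by decide) (by decide +kernel) hX).2
      have hc : Has hR _ 10 := has_comm hR hT (a := 7) (b := 9) (c := 3) (by decide +kernel)
        (by decide +kernel) (by decide) (by decide +kernel) (h3 rfl) hX hb
      exact (has_foldr hR hT hN [0] (by decide) (by decide +kernel) hc).2
  · -- B₂
    have hi0 : i = 0 := by
      by_contra h0
      have hi1 : i = 1 := by
        have : i < 2 := hi
        omega
      subst hi1
      revert hshort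
      decide +kernel
    subst hi0
    refine group_le hR hT hN ?_
    intro j hj
    have hj' : j < 2 := hj
    have hj2 : j = 0 ∨ j = 1 := by omega
    rcases hj2 with rfl | rfl
    · exact hX
    · have hb := (has_foldr hR hT hN [1] (by decide) (by decide +kernel) hX).2
      have hc : Has hR _ 7 := has_comm hR hT (a := 5) (b := 6) (c := 2) (by decide +kernel)
        (by decide +kernel) (by decide) (by decide +kernel) (h2 (by simp)) hX hb
      exact (has_foldr hR hT hN [0] (by decide) (by decide +kernel) hc).2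
  · exact group_le_of_list hR hT hN (bond_lemma _ (by simp)) [i]
      (by simpa using ⟨hi, hX⟩) (conn_lemma _ (by simp) i hi)
  · -- F₄
    have hi01 : i = 0 ∨ i = 1 := by
      by_contra h0
      have hi2 : i = 2 ∨ i = 3 := by
        have : i < 4 := hi
        omega
      rcases hi2 with rfl | rfl <;> · revert hshort; decide +kernel
    have key : ∀ M : Subgroup (GL chevF4.Idx K), chevF4.monomialSubgroup K ≤ M →
        Has hR M (chevF4.simple 0) → chevF4.group K ≤ M := by
      intro M hM hX0
      have hb := (has_foldr hR hT hM [1, 2, 1] (by decide) (by decide +kernel) hX0).2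
      have hc : Has hR _ 41 := has_comm hR hT (a := 33) (b := 37) (c := 2) (by decide +kernel)
        (by decide +kernel) (by decide) (by decide +kernel) (h2 (by simp)) hX0 hb
      have hd := (has_foldr hR hT hM [1, 0] (by decide) (by decide +kernel) hc).2
      refine group_le_of_list hR hT hM (bond_lemma _ (by simp)) [0, 2] ?_ (by decide +kernel)
      intro j hj
      simp only [List.mem_cons, List.not_mem_nil, or_false] at hj
      rcases hj with rfl | rfl
      · exact ⟨by decide, hX0⟩
      · exact ⟨by decide, hd⟩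
    rcases hi01 with rfl | rfl
    · exact key _ hN hX
    · refine key _ hN ?_
      exact has_bond hR hT hN (bond_lemma _ (by simp)) (j := 1) (k := 0) (by decide) (by decide)
        (by decide +kernel) hX
  · exact group_le_of_list hR hT hN (bond_lemma _ (by simp)) [i]
      (by simpa using ⟨hi, hX⟩) (conn_lemma _ (by simp) i hi)
  · exact group_le_of_list hR hT hN (bond_lemma _ (by simp)) [i]
      (by simpa using ⟨hi, hX⟩) (conn_lemma _ (by simp) i hi)
  · exact group_le_of_list hR hT hN (bond_lemma _ (by simp)) [i]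
      (by simpa using ⟨hi, hX⟩) (conn_lemma _ (by simp) i hi)

set_option synthInstance.maxSize 256 in
set_option synthInstance.maxHeartbeats 200000 in
/-- The small characteristic case. -/
theorem main_two {K : Type*} [Field K] {η : ℕ → ℕ → ℤ} {D : ChevalleyDatum} (hR : Sys D K η)
    (hT : Tbl D) (hD : D ∈ [chevB2, chevF4, chevG2])
    (i j : ℕ) (hi : i < D.rank) (hj : j < D.rank) (hshort : D.isLong (D.simple i) = false)
    (hlong : D.isLong (D.simple j) = true) (hbond : D.bonds i j ≠ 0) :
    D.group K ≤ D.monomialSubgroup K ⊔ D.rootSubgroup K (D.simple i) ⊔ D.rootSubgroup K (D.simple j) := by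
  have hbs : ∀ j < D.rank, ∀ k < D.rank, D.bonds j k = 1 →
      D.reflectRoot j (D.reflectRoot k (D.simple j)) = D.simple k := by
    simp only [List.mem_cons, List.not_mem_nil, or_false] at hD
    rcases hD with rfl | rfl | rfl <;> decide +kernel
  have hc : ∀ i < D.rank, ∀ j < D.rank, ((D.isLong (D.simple i) == false) && (D.isLong (D.simple j) == true)
      && (D.bonds i j != 0)) = true → ∀ k < D.rank, k ∈ growN D D.rank [i, j] := by
    simp only [List.mem_cons, List.not_mem_nil, or_false] at hD
    rcases hD with rfl | rfl | rfl <;> decide +kernel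
  refine group_le_of_list hR hT (le_trans le_sup_left le_sup_left) hbs [i, j] ?_
    (hc i hi j hj (by simp [hshort, hlong, hbond]))
  intro k hk
  simp only [List.mem_cons, List.not_mem_nil, or_false] at hk
  rcases hk with rfl | rfl
  · exact ⟨hi, has_of_le hR hT (le_trans le_sup_right le_sup_left)⟩
  · exact ⟨hj, has_of_le hR hT le_sup_right⟩

end Final

end Cfsg.Agent.Lib.ChevBN.MonoGen
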